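import Cfsg.Agent.Lib.ToddCox.U62C4.Data
set_option autoImplicit false
set_option maxRecDepth 100000
namespace Cfsg.Agent.Lib.ToddCox.U62C4
theorem wordsGood : allBelow (wordsOK W (relR Rb inv) inv sp) nW 4 = true := by decide +kernel
theorem d0 : allBits (fun k => bif Nat.blt k 4 then chkDef Eo inv k else true) 13 0 = true := by decide +kernel
theorem s0 : chkStream Eo inv W isH 12 4 0x600000c000001c00001000000600000b000001c00000e000006000002000004800000a0000070000030000010000028000005000002800001000000400000e0000018000014000008000002000000000002c0000020000030000018000008000020000003000001000000000001a00000100000080000000000120000010000007ffffffffffffffffff = true := by decide +kernel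
theorem c0 : Covered Eo inv W isH 4 16 := covered_of_stream 12 4 _ s0
theorem l0 : chkPoints Eo cF (2 * nEv) N ys 5 0 0xf800001000000e00000300000e800001000003600000400000c800000c00000c00000400000b800000c00000a00000200000a800000800002600000200000180000040000080000030000008000000000022000001000001000000800001e00000100000000000040000180000000000050000000000010000000 = true := by decide +kernel
theorem k0 : LinksOK Eo cF (2 * nEv) N ys 0 5 := linksOK_of_points 5 0 _ l0
end Cfsg.Agent.Lib.ToddCox.U62C4
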